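import Mathlib
import Cfsg.Agent.H37.NX.TOne
import Cfsg.Agent.H229.RIM.MinDef
import Cfsg.Agent.H586.GW.Final

/-!
# S4816 (relative Ito-Michler): the reduction to a minimal counterexample (helper37)

`s4816_of`: the theorem follows from `NoMinX p` for odd `p`, from Gluck-Wolf (`Goal p n`, S4900) and from the
odd case `p = 2` (S4986).
-/

set_option autoImplicit false
set_option linter.style.haveILetI false
set_option linter.unusedSectionVars false

open Cfsg

namespace Cfsg.Agent.H37.RIM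

open Cfsg.Agent.Characters.Core Cfsg.Agent.Characters.Clifford Cfsg.Agent.H672
open Cfsg.Agent.H672.RM (over_lin_iff)
open Cfsg.Agent.H586.GW
open Cfsg.Agent.H229.RIM (Bad MinX NoMinX)
open Cfsg.Agent.H37.NW (relP_up relP_subgroupOf inertia_central relP_twist)
open scoped commutatorElement

universe u

/-- The statement for subgroups of index `n` (no solvability hypothesis). -/
def GoalU (p n : ℕ) : Prop :=
  ∀ {G : Type u} [Group G] [Finite G] (N : Subgroup G) [N.Normal] (θ : N → ℂ),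
    IsIrrCharacter N θ → N.index = n → RelP p N.subtype θ → AbP p N

/-- The statement for central subgroups of order prime to `p` and faithful characters. -/
def CGoalU (p n : ℕ) : Prop :=
  ∀ {G : Type u} [Group G] [Finite G] (Z : Subgroup G) (_ : Z ≤ Subgroup.center G)
    (l : Z →* ℂˣ), Function.Injective l → ¬ p ∣ Nat.card Z → Z.index = n →
      RelP p Z.subtype (lf l) → AbP p Z

section faithful
variable {p : ℕ} [hp : Fact p.Prime] {G : Type u} [Group G] [Finite G]

/-- the central case for characters which are not faithful, of order prime to `p` -/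
theorem CGoalU.fac {n : ℕ} (h : CGoalU.{u} p n) (Z : Subgroup G)
    (hZ : Z ≤ Subgroup.center G) (l : Z →* ℂˣ) {b : ℕ} (hb : ¬ p ∣ b) (hl : ∀ z, l z ^ b = 1)
    (hn : Z.index = n) (hrel : RelP p Z.subtype (lf l)) : AbP p Z := by
  classical
  let K : Subgroup G := l.ker.map Z.subtype
  have hKZ : K ≤ Z := by
    rintro _ ⟨z, -, rfl⟩
    exact z.2
  haveI hK : K.Normal := center_normal K (hKZ.trans hZ)
  let q : G →* G ⧸ K := QuotientGroup.mk' K
  have hq : Function.Surjective q := QuotientGroup.mk'_surjective K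
  have hkq : q.ker = K := QuotientGroup.ker_mk' K
  let Z' : Subgroup (G ⧸ K) := Z.map q
  have hcomap : Z'.comap q = Z := by
    rw [Subgroup.comap_map_eq, hkq, sup_eq_left.2 hKZ]
  have hZ' : Z' ≤ Subgroup.center (G ⧸ K) := by
    rintro _ ⟨z, hz, rfl⟩
    rw [Subgroup.mem_center_iff]
    intro x
    obtain ⟨x, rfl⟩ := hq x
    rw [← map_mul, ← map_mul, Subgroup.mem_center_iff.1 (hZ hz) x]
  let f : Z →* Z' := (q.comp Z.subtype).codRestrict Z' (fun z => ⟨z, z.2, rfl⟩)
  have hf : Function.Surjective f := by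
    rintro ⟨_, z, hz, rfl⟩
    exact ⟨⟨z, hz⟩, rfl⟩
  have hkf : f.ker ≤ l.ker := by
    intro z hz
    have h1 : q (z : G) = 1 := congrArg Subtype.val (MonoidHom.mem_ker.1 hz)
    have h2 : (z : G) ∈ K := by rw [← hkq]; exact MonoidHom.mem_ker.2 h1
    obtain ⟨w, hw, hwz⟩ := h2
    have : w = z := Subtype.ext hwz
    rwa [← this]
  let l' : Z' →* ℂˣ := f.liftOfSurjective hf ⟨l, hkf⟩
  have hl' : ∀ z, l' (f z) = l z := fun z => MonoidHom.liftOfRightInverse_comp_apply _ _ _ _ _
  have hinj : Function.Injective l' := by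
    rw [injective_iff_map_eq_one]
    intro z hz
    obtain ⟨z, rfl⟩ := hf z
    rw [hl'] at hz
    apply Subtype.ext
    change q (z : G) = 1
    rw [← MonoidHom.mem_ker, hkq]
    exact ⟨z, hz, rfl⟩
  have hpZ' : ¬ p ∣ Nat.card Z' := by
    intro h
    obtain ⟨z, hz⟩ := exists_prime_orderOf_dvd_card' (G := Z') p h
    have h1 : z ^ p = 1 := orderOf_dvd_iff_pow_eq_one.1 (dvd_of_eq hz)
    have h2 : l' z ^ p = 1 := by rw [← map_pow, h1, map_one]
    have h3 : l' z ^ b = 1 := by
      obtain ⟨y, rfl⟩ := hf z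
      rw [hl']
      exact hl y
    have h4 := pow_gcd_eq_one.2 ⟨h2, h3⟩
    rw [((Nat.Prime.coprime_iff_not_dvd hp.out).2 hb).gcd_eq_one, pow_one] at h4
    have h5 : z = 1 := hinj (by rw [h4, map_one])
    rw [h5, orderOf_one] at hz
    exact hp.out.one_lt.ne hz
  have hab : AbP p Z' := by
    refine h Z' hZ' l' hinj hpZ' ?_ ?_
    · rw [← hn]
      exact Subgroup.index_map_eq Z hq (by rw [hkq]; exact hKZ)
    · intro χ hχ hov hd
      have h1 : IsIrrCharacter G (χ ∘ q) := isIrr_comp q hq hχ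
      refine hrel (χ ∘ q) h1 ?_ ?_
      · rw [over_lin_iff Z.subtype (fun z => hZ z.2) h1]
        rw [over_lin_iff Z'.subtype (fun z => hZ' z.2) hχ] at hov
        intro z
        have h2 := hov (f z)
        rw [hl'] at h2
        change χ (q z) = χ (q 1) * _
        rw [map_one]
        exact h2
      · rw [charDegree_comp_one, charDegree_lf]
        rwa [charDegree_lf] at hd
  rw [← hcomap]
  exact hab.comap q hq

/-- the central case for all linear characters -/
theorem CGoalU.all {n : ℕ} (h : CGoalU.{u} p n) (Z : Subgroup G)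
    (hZ : Z ≤ Subgroup.center G) (l : Z →* ℂˣ)
    (hn : Z.index = n) (hrel : RelP p Z.subtype (lf l)) : AbP p Z := by
  obtain ⟨ν, b, hb, hν⟩ := Cfsg.Agent.H37.NX.exists_nu hZ hrel
  let l' : Z →* ℂˣ := l * (ν.comp Z.subtype)⁻¹
  have hl' : ∀ z : Z, l' z = l z * (ν z)⁻¹ := fun z => rfl
  exact h.fac Z hZ l' hb (fun z => by rw [hl']; exact hν z) hn (relP_twist hZ hrel ν l' hl')

end faithful

/-- **Reduction to the central case.** -/
theorem goalU_of_cgoalU {p : ℕ} [hp : Fact p.Prime] {n : ℕ} (ih : ∀ k < n, GoalU.{u} p k)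
    (hc : CGoalU.{u} p n) : GoalU.{u} p n := by
  intro G _ _ N _ θ hθ hn hrel
  have hidx := hrel.not_dvd_index N hθ
  have hNT : N ≤ inertia N θ := le_inertia (isIrr_isClassFunction hθ)
  by_cases hT : inertia N θ = ⊤
  · obtain ⟨Δ, Q, _, _, _, π, m, Z, l, hπ, hm, hcomap, hZ, h1, -⟩ :=
      exists_triple (p := p) N hθ hT
    apply AbP.of_comap π hπ
    rw [hcomap]
    refine AbP.comap m hm (hc.all Z hZ l ?_ (h1 hrel))
    rw [← hn, ← Subgroup.index_comap_of_surjective N hπ, hcomap,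
      Subgroup.index_comap_of_surjective Z hm]
  · apply AbP.of_index N hp.out hNT hidx
    have h1 := hrel.inertia N hθ _ rfl hNT
    have h2 := relP_equiv _ (Subgroup.subgroupOfEquivOfLe hNT) h1
    have h3 : (N.subgroupOf (inertia N θ)).index < n := by
      rw [← hn]
      have h4 : N.relIndex (inertia N θ) * (inertia N θ).index = N.index :=
        Subgroup.relIndex_mul_index hNT
      have h5 : (inertia N θ).index ≠ 1 := fun h => hT (Subgroup.index_eq_one.1 h)
      have h6 : (inertia N θ).index ≠ 0 := Subgroup.index_ne_zero_of_finite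
      have h7 : N.relIndex (inertia N θ) ≠ 0 := Subgroup.index_ne_zero_of_finite
      change N.relIndex (inertia N θ) < N.index
      rw [← h4]
      have h8 : 2 ≤ (inertia N θ).index := by omega
      nlinarith [Nat.pos_of_ne_zero h7]
    refine ih _ h3 (N.subgroupOf (inertia N θ)) _ ?_ rfl h2
    exact isIrr_comp (Subgroup.subgroupOfEquivOfLe hNT).toMonoidHom
        (Subgroup.subgroupOfEquivOfLe hNT).surjective hθ

/-- Going up. -/
theorem abP_up {p : ℕ} [hp : Fact p.Prime] {G : Type u} [Group G] [Finite G] {Z : Subgroup G}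
    {l : Z →* ℂˣ} (hZ : Z ≤ Subgroup.center G) (hrel : RelP p Z.subtype (lf l))
    (ih : ∀ k < Z.index, GoalU.{u} p k) {M : Subgroup G} (hM : M.Normal) (hZM : Z < M) :
    AbP p M := by
  classical
  haveI := center_normal Z hZ
  obtain ⟨ψ, hψ, hov⟩ := exists_over_inj (Subgroup.inclusion hZM.le)
    (Subgroup.inclusion_injective hZM.le) (isIrr_lf l)
  refine ih _ ?_ M ψ hψ rfl (relP_up Z hrel (isIrr_lf l) M hZM.le hψ hov)
  have h4 : Z.relIndex M * M.index = Z.index := Subgroup.relIndex_mul_index hZM.le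
  have h5 : Z.relIndex M ≠ 1 := fun h => (Subgroup.relIndex_eq_one.1 h).not_gt hZM
  have h6 : M.index ≠ 0 := Subgroup.index_ne_zero_of_finite
  have h7 : Z.relIndex M ≠ 0 := Subgroup.index_ne_zero_of_finite
  rw [← h4]
  have h8 : 2 ≤ Z.relIndex M := by omega
  nlinarith [Nat.pos_of_ne_zero h6]

/-- Going down. -/
theorem abP_low {p : ℕ} [hp : Fact p.Prime] {G : Type u} [Group G] [Finite G] {Z : Subgroup G}
    {l : Z →* ℂˣ} (hZ : Z ≤ Subgroup.center G) (hrel : RelP p Z.subtype (lf l))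
    (ih : ∀ k < Z.index, GoalU.{u} p k) {M : Subgroup G} (hM : M.Normal) (hZM : Z ≤ M)
    (hMt : M ≠ ⊤) : ∀ S : Subgroup G, S ≤ M → IsPGroup p S → ∀ a ∈ S, ∀ b ∈ S, ⁅a, b⁆ ∈ Z := by
  classical
  haveI := center_normal Z hZ
  have h1 := relP_subgroupOf Z M hZM (hrel.normal Z (isIrr_lf l) M hZM)
  have h2 : AbP p (Z.subgroupOf M) := by
    refine ih _ ?_ (Z.subgroupOf M) _ (isIrr_comp (Subgroup.subgroupOfEquivOfLe hZM).toMonoidHom
      (Subgroup.subgroupOfEquivOfLe hZM).surjective (isIrr_lf l)) rfl h1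
    have h4 : Z.relIndex M * M.index = Z.index := Subgroup.relIndex_mul_index hZM
    have h5 : M.index ≠ 1 := fun h => hMt (Subgroup.index_eq_one.1 h)
    have h6 : M.index ≠ 0 := Subgroup.index_ne_zero_of_finite
    have h7 : Z.relIndex M ≠ 0 := Subgroup.index_ne_zero_of_finite
    change Z.relIndex M < Z.index
    rw [← h4]
    have h8 : 2 ≤ M.index := by omega
    nlinarith [Nat.pos_of_ne_zero h7]
  intro S hS hSp a ha b hb
  let P : Subgroup G := Z ⊔ S
  have hPM : P ≤ M := sup_le hZM hS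
  have hZP : Z ≤ P := le_sup_left
  have hidx : ∃ k, Z.relIndex P = p ^ k := by
    have h3 : Z.relIndex P ∣ Nat.card S := by
      change Z.relIndex (Z ⊔ S) ∣ _
      rw [sup_comm, Subgroup.relIndex_sup_right]
      exact Subgroup.relIndex_dvd_card Z S
    obtain ⟨k, hk⟩ := IsPGroup.iff_card.1 hSp
    rw [hk] at h3
    obtain ⟨j, -, hj⟩ := (Nat.dvd_prime_pow hp.out).1 h3
    exact ⟨j, hj⟩
  obtain ⟨k, hk⟩ := hidx
  have h3 := h2 (P.subgroupOf M) (Subgroup.comap_mono hZP) ⟨k, by
    rw [Subgroup.relIndex_subgroupOf hPM, hk]⟩ ⟨a, hS ha⟩ (le_sup_right (a := Z) ha) ⟨b, hS hb⟩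
    (le_sup_right (a := Z) hb)
  exact h3

/-- The central case from the non-existence of a minimal counterexample. -/
theorem cgoalU_of {p : ℕ} [hp : Fact p.Prime] (hp2 : p ≠ 2) (hno : NoMinX.{u} p)
    (hgw : ∀ n, Goal.{u} p n) {n : ℕ} (ih : ∀ k < n, GoalU.{u} p k) : CGoalU.{u} p n := by
  intro G _ _ Z hZ l hinj hpZ hn hrel
  subst hn
  by_contra hnot
  haveI := center_normal Z hZ
  refine hno Z l ⟨hp2, hZ, hinj, hpZ, ?_, ?_, hnot, ?_, ?_⟩
  · intro χ hχ hov hd
    refine hrel χ hχ ((over_lin_iff Z.subtype (fun z => hZ z.2) hχ l).2 fun z => hov z) ?_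
    rw [charDegree_lf, mul_one]
    exact hd
  · intro hps
    exact hnot (hgw Z.index Z (lf l) (isIrr_lf l)
      (Cfsg.Agent.Lib.PSolvable.IsPSolvable_of_surjective p hps (QuotientGroup.mk' Z)
        (QuotientGroup.mk'_surjective Z)) rfl hrel)
  · intro M hM hZM
    exact abP_up hZ hrel ih hM hZM
  · intro M hM hZM hMt
    exact abP_low hZ hrel ih hM hZM hMt

theorem goalU_of {p : ℕ} [hp : Fact p.Prime] (hp2 : p ≠ 2) (hno : NoMinX.{u} p)
    (hgw : ∀ n, Goal.{u} p n) (n : ℕ) : GoalU.{u} p n := by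
  induction n using Nat.strong_induction_on with
  | _ n ih => exact goalU_of_cgoalU ih (cgoalU_of hp2 hno hgw ih)

/-- The statement of S4986 in one universe. -/
def S4986Stmt : Prop :=
  ∀ {G : Type u} [Group G] [Finite G] (N : Subgroup G) [N.Normal] (φ : IrrCharacter ↥N),
    (∀ (g : G) (n m : ↥N), (m : G) = g * n * g⁻¹ → (φ : ↥N → ℂ) m = (φ : ↥N → ℂ) n) →
    (∀ χ : IrrCharacter G,
      (∑ᶠ n : ↥N, (χ : G → ℂ) n * (starRingEnd ℂ) ((φ : ↥N → ℂ) n)) ≠ 0 →
        Odd (charDegree (χ : G → ℂ) / charDegree (φ : ↥N → ℂ))) → Group.IsSolvable (G ⧸ N)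

/-- `S4816` -/
theorem s4816_of (h4986 : S4986Stmt.{u}) (hgw : ∀ (p : ℕ) [Fact p.Prime] (n : ℕ), Goal.{u} p n)
    (hno : ∀ p : ℕ, p.Prime → p ≠ 2 → NoMinX.{u} p)
    {G : Type u} [Group G] [Fintype G] (p : ℕ) [hp : Fact p.Prime] (N : Subgroup G)
    [N.Normal] [Fintype N] (θ : Cfsg.IrrCharacter N)
    (hinv : ∀ g : G, ∀ n n' : N, (n' : G) = g * n * g⁻¹ → (θ : N → ℂ) n' = (θ : N → ℂ) n)
    (hdeg : ∀ χ : Cfsg.IrrCharacter G,
      Cfsg.classInner (fun n : N => (χ : G → ℂ) n) (θ : N → ℂ) ≠ 0 →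
      (Cfsg.charDegree (χ : G → ℂ)).factorization p = (Cfsg.charDegree (θ : N → ℂ)).factorization p)
    (Q : Sylow p (G ⧸ N)) : IsMulCommutative (Q : Subgroup (G ⧸ N)) := by
  classical
  have hpp : p.Prime := hp.out
  have h2 : charDegree (θ : N → ℂ) ≠ 0 := (charDegree_pos θ.2).ne'
  have hrel : RelP p N.subtype (θ : N → ℂ) := by
    intro χ hχ hov hd
    have h1 := hdeg ⟨χ, hχ⟩ ((over_iff N.subtype χ θ).1 hov)
    have h3 : charDegree χ ≠ 0 := (charDegree_pos hχ).ne'
    have h4 := (Nat.factorization_le_iff_dvd (mul_ne_zero hpp.ne_zero h2) h3).2 hd p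
    rw [Nat.factorization_mul hpp.ne_zero h2, Finsupp.add_apply, hpp.factorization_self] at h4
    change _ ≤ (charDegree χ).factorization p at h4
    change (charDegree χ).factorization p = _ at h1
    omega
  have hab : AbP p N := by
    by_cases hp2 : p = 2
    · subst hp2
      have hs : Group.IsSolvable (G ⧸ N) := by
        refine h4986 N θ hinv ?_
        intro χ hχ
        have hov : Over N.subtype (χ : G → ℂ) θ :=
          (Cfsg.Agent.H672.RM.over_iff_finsum N.subtype _ _).2 hχ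
        have h3 := hrel χ χ.2 hov
        have h4 : charDegree (θ : N → ℂ) ∣ charDegree (χ : G → ℂ) :=
          (dvd_mul_left _ _).trans (index_mul_charDegree_dvd N χ.2 θ.2 hov)
        obtain ⟨c, hc⟩ := h4
        rw [hc, Nat.mul_div_cancel_left _ (Nat.pos_of_ne_zero h2)]
        rw [← Nat.not_even_iff_odd, even_iff_two_dvd]
        rintro ⟨d, rfl⟩
        apply h3
        rw [hc]
        exact ⟨d, by ring⟩
      exact hgw 2 N.index N (θ : N → ℂ) θ.2
        (Cfsg.Agent.Lib.PSolvable.IsPSolvable_of_solvable 2) rfl hrel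
    · exact goalU_of hp2 (hno p hpp hp2) (hgw p) N.index N (θ : N → ℂ) θ.2 rfl hrel
  refine ⟨⟨fun a b => ?_⟩⟩
  obtain ⟨a, ha⟩ := a
  obtain ⟨b, hb⟩ := b
  obtain ⟨a, rfl⟩ := QuotientGroup.mk'_surjective N a
  obtain ⟨b, rfl⟩ := QuotientGroup.mk'_surjective N b
  let P : Subgroup G := (Q : Subgroup (G ⧸ N)).comap (QuotientGroup.mk' N)
  have hNP : N ≤ P := by
    intro x hx
    show QuotientGroup.mk' N x ∈ (Q : Subgroup (G ⧸ N))
    rw [show QuotientGroup.mk' N x = 1 from (QuotientGroup.eq_one_iff x).2 hx]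
    exact one_mem _
  have hidx : ∃ k, N.relIndex P = p ^ k := by
    obtain ⟨k, hk⟩ := IsPGroup.iff_card.1 Q.isPGroup'
    refine ⟨k, ?_⟩
    rw [← hk]
    have h5 := Subgroup.relIndex_comap (⊥ : Subgroup (G ⧸ N)) (QuotientGroup.mk' N) P
    rw [MonoidHom.comap_bot, QuotientGroup.ker_mk', Subgroup.relIndex_bot_left] at h5
    rw [h5, Subgroup.map_comap_eq_self_of_surjective (QuotientGroup.mk'_surjective N)]
  have h6 := hab P hNP hidx a ha b hb
  apply Subtype.ext
  change QuotientGroup.mk' N a * QuotientGroup.mk' N b = QuotientGroup.mk' N b * QuotientGroup.mk' N a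
  have h7 : QuotientGroup.mk' N ⁅a, b⁆ = 1 := (QuotientGroup.eq_one_iff _).2 h6
  rw [map_commutatorElement, commutatorElement_eq_one_iff_mul_comm] at h7
  exact h7

end Cfsg.Agent.H37.RIM
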